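import Cfsg.Agent.Lib.ToddCox.U62C5.Data
set_option autoImplicit false
set_option maxRecDepth 100000
namespace Cfsg.Agent.Lib.ToddCox.U62C5
theorem wordsGood : allBelow (wordsOK W (relR Rb inv) inv sp) nW 3 = true := by decide +kernel
theorem d0 : allBits (fun k => bif Nat.blt k 3 then chkDef Eo inv k else true) 13 0 = true := by decide +kernel
theorem s0 : chkStream Eo inv W isH 6 3 0x800000c000002800000c000008000002000005000000c00000a000002000001000000000000e00000100000180000040000000000090000008000003ffffffffffff = true := by decide +kernel
theorem c0 : Covered Eo inv W isH 3 9 := covered_of_stream 6 3 _ s0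
theorem l0 : chkPoints Eo cF (2 * nEv) N ys 4 0 0x8800000c00000a000002000007800000c00001a000002000002000000c00000600000100000080000000000160000010000010000008000000000001000004000000000000c000000 = true := by decide +kernel
theorem k0 : LinksOK Eo cF (2 * nEv) N ys 0 4 := linksOK_of_points 4 0 _ l0
end Cfsg.Agent.Lib.ToddCox.U62C5
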